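import Cfsg.Agent.H834.L16.N012

/-!
# S5916: the elimination `ElimN02` (helper834)
-/

set_option autoImplicit false
set_option maxRecDepth 100000

namespace Cfsg.Agent.H834.L16

open Cfsg Cfsg.Lie
open Cfsg.Agent.H939.L64 (KK LK brK)
open Cfsg.Agent.H413.L16 (er nr)
open Cfsg.Agent.H939.L16 (Ops iz)
open Cfsg.Agent.H955.L16

theorem n02_194 : nrm (bl 194 (Rl 0) (Fl (Fl (Rl 0)))) = [((3, 1), (3, 4)), ((6, 1), (6, 4))] := by decide +kernel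

theorem n02_6 : nrm (bl 6 (Rl 0) (Fl (Fl (Rl 0)))) = [((6, 1), (6, 4))] := by decide +kernel

theorem n02_ok : ok (Rl 0) = true ∧ ok (Fl (Rl 0)) = true ∧ ok (Fl (Fl (Rl 0))) = true := by decide +kernel

/-- the value of the variables -/
noncomputable def nu7 (k o1 o3 r1 r2 r3 r0 : KK) (n : ℕ) : KK :=
  [k, 0, 0, o1, 0, 0, o3, 0, 0, r1, 0, 0, r2, 0, 0, r3, 0, 0, r0].getD n 0

/-- **the elimination of type N, `(0,2)`** -/
theorem elimN02 {Fp : LK → LK} {ta : LK →ₗ[KK] LK} (h : Ops Fp ta) : ElimN02 Fp := by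
  intro k o1 o3 r1 r2 r3 r0 _ he
  obtain ⟨h1, h2, h3⟩ := n02_ok
  have hv : vR k o1 o3 r1 r2 r3 r0 = ev (nu7 k o1 o3 r1 r2 r3 r0) (Rl 0) := by
    rw [ev_Rl]
    rfl
  rw [hv, ev_F h _ h1, ev_F h _ h2] at he
  have key : ∀ {u : ℕ}, u < 240 → ∀ {q : List ((ℕ × ℕ) × (ℕ × ℕ))}, nrm (bl u (Rl 0) (Fl (Fl (Rl 0)))) = q →
      qv (nu7 k o1 o3 r1 r2 r3 r0) q = 0 := by
    intro u hu q hq
    have hu' : u < chevE8.nroots := by rw [nr]; exact hu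
    have h4 := congrFun he (Sum.inr ⟨u, hu'⟩)
    rw [cf_br _ hu' h1 h3] at h4
    rw [← hq, qv_nrm]
    exact h4
  have e1 : o1 ^ 1 * o1 ^ 4 + (o3 ^ 1 * o3 ^ 4 + 0) = 0 := key (by decide) n02_194
  have e2 : o3 ^ 1 * o3 ^ 4 + 0 = 0 := key (by decide) n02_6
  have z3 : o3 = 0 := by simpa using e2
  exact ⟨by simpa [z3] using e1, z3⟩

end Cfsg.Agent.H834.L16
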